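import Cfsg.Agent.H7.Inv23
import Cfsg.Agent.S2053
import Cfsg.Agent.S3960

/-! H7.Dc22: involutions of `Fi22` lift to involutions of a perfect double cover. -/

namespace H7
open Subgroup
open scoped commutatorElement

theorem top_of_cen {X : Type*} [Group X] (p : Group.IsPerfect X) {H : Subgroup X} (h : ∀ x, ∃ y ∈ H, y⁻¹ * x ∈ center X) : H = ⊤ :=
  eq_top_iff.2 (p.1.ge.trans (commutator_le.2 fun x _ y _ => by
    obtain ⟨a, ha, s⟩ := h x
    obtain ⟨b, hb, t⟩ := h y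
    have c : ∀ {s}, s ∈ center X → ∀ g, s * g * s⁻¹ = g := fun h g => mul_inv_eq_iff_eq_mul.2 (mem_center_iff.1 h g).symm
    have e : ⁅x, y⁆ = a * (a⁻¹ * x * y * (a⁻¹ * x)⁻¹) * a⁻¹ * y⁻¹ := by rw [commutatorElement_def]; group
    rw [e, c s, show a * y * a⁻¹ * y⁻¹ = a * b * (b⁻¹ * y * a⁻¹ * (b⁻¹ * y)⁻¹) * b⁻¹ by group, c t]
    exact mul_mem (mul_mem (mul_mem ha hb) (inv_mem ha)) (inv_mem hb)))

namespace T

theorem lift22 {X : Type} [Group X] (σ : X →* Cfsg.Spor.Fi22) (s : Function.Surjective σ) (c : σ.ker ≤ center X) (o : ∀ z ∈ σ.ker, z * z = 1)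
    {x : Cfsg.Spor.Fi22} (hx : x * x = 1) : ∃ y, y * y = 1 ∧ σ y = x := by
  have := F22.fin
  have d := F23.gs_mem (a := 0) (by decide)
  have l := loc23 F23 F22 _ d
  obtain ⟨τ, h⟩ := l.cc
  obtain ⟨π, h1, h2, h3⟩ := h.hom' F22.closure_D F22.center_eq
  obtain ⟨U, _, _, φ, p, a, b, u⟩ := Cfsg.Agent.S3960.result (qs_of_simple simple_Fi22 (by rw [F22.card.trans (rfl : _ = 64561751654400)]; norm_num)).1.1
  obtain ⟨η, e, -⟩ := u X σ s c
  obtain ⟨ζ, e', -⟩ := u _ π h2 h3.le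
  obtain ⟨f, hf⟩ := Cfsg.Agent.S2053.result.2 U φ ⟨a, b, p.1.ge.trans' le_top⟩
  have k : ∀ v, π (ζ v) = φ v := DFunLike.congr_fun e'
  have o' : ∀ z ∈ π.ker, z * z = 1 := fun z hz => Subtype.ext (by
    rcases l.c2 z z.2 fun x hx => congrArg Subtype.val (mem_center_iff.1 (h3.le hz) ⟨x, subset_closure hx⟩).symm with e | e <;> simp [e, F23.t3.sq _ d])
  have q : ∀ v ∈ φ.ker, ∃ b : φ.ker, v = b * b ∨ v = b * b * f (Multiplicative.ofAdd 1) := fun v hv => by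
    obtain ⟨a, e⟩ := hf ⟨v, hv⟩
    obtain ⟨b, r⟩ := (by decide : ∀ a : Multiplicative (ZMod 6), ∃ b, a = b * b ∨ a = b * b * Multiplicative.ofAdd 1) a
    exact ⟨f b, r.imp (fun r => by simpa [r] using congrArg Subtype.val e.symm) fun r => by simpa [r] using congrArg Subtype.val e.symm⟩
  have n : ζ (f (Multiplicative.ofAdd 1)) ≠ 1 := fun n => by
    obtain ⟨v, hv⟩ := (top_of_cen (qs23 F23 d).1 (H := ζ.range) fun x => let ⟨v, hv⟩ := a (π x); ⟨_, ⟨v, rfl⟩, h3.le (by simp [k, hv])⟩).ge (mem_top ⟨_, l.mem⟩)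
    obtain ⟨b, r⟩ := q v (by rw [MonoidHom.mem_ker, ← k, hv, ← MonoidHom.mem_ker, h3, l.cen]; exact mem_zpowers _)
    have := o' (ζ b) ((k b).trans b.2)
    exact F23.t3.ne _ d (congrArg Subtype.val (hv.symm.trans (show ζ v = 1 by rcases r with r | r <;> simp [r, this, n])))
  obtain ⟨j, -, r⟩ := inv22 F22 x hx
  obtain ⟨y, m, r⟩ := r.gr h
  obtain ⟨w, hw⟩ := a x
  have t : ζ (w * w) = 1 := by
    have z : (⟨y, r.mem⟩ : closure (Dp F23.D (F23.gs 0)))⁻¹ * ζ w ∈ π.ker := by simp [k, hw, h1 _ m]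
    rw [map_mul, ← mul_inv_cancel_left ⟨y, r.mem⟩ (ζ w), Commute.mul_mul_mul_comm (mem_center_iff.1 (h3.le z) _).symm, o' _ z, mul_one]
    exact Subtype.ext (r.sq h.t')
  obtain ⟨b, r⟩ := q (w * w) (by simp [hw, hx])
  refine ⟨η w, ?_, (DFunLike.congr_fun e w).trans hw⟩
  rcases r with r | r
  · rw [← map_mul, r, map_mul]; exact o _ ((DFunLike.congr_fun e b.1).trans b.2)
  · exact absurd (by simpa [r, o' (ζ b) ((k b).trans b.2)] using t) n

end T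
end H7
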