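import Cfsg.Agent.H7.Dc22
import Cfsg.Agent.H7.Fac
import Cfsg.Agent.H7.LB
import Cfsg.Agent.H7.T.Q23_13

/-! H7.Dc23: a perfect double cover of `Fi22` is the centralizer of a transposition of `Fi23`; its involutions. -/

namespace H7
open Subgroup

universe u
variable {G : Type u} [Group G]

theorem z6 : ∀ a : Multiplicative (ZMod 6), ∃ b, a = b * b ∨ a = b * b * Multiplicative.ofAdd 1 := by decide

theorem ker_sq {U X Q : Type*} [Group U] [Group X] [Group Q] {φ : U →* Q} {f : Multiplicative (ZMod 6) →* φ.ker} (hf : Function.Surjective f) {σ : X →* Q} {η : U →* X}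
    (e : ∀ v, σ (η v) = φ v) (s : Function.Surjective η) (o : ∀ z ∈ σ.ker, z * z = 1) {z : X} (hz : z ∈ σ.ker) (n : z ≠ 1) (v : U) :
    η v = 1 ↔ ∃ b : φ.ker, v = b * b := by
  have q : ∀ v ∈ φ.ker, ∃ b : φ.ker, v = b * b ∨ v = b * b * f (Multiplicative.ofAdd 1) := fun v hv => by
    obtain ⟨a, e⟩ := hf ⟨v, hv⟩
    obtain ⟨b, r⟩ := z6 a
    exact ⟨f b, r.imp (fun r => by simpa [r] using congrArg Subtype.val e.symm) fun r => by simpa [r] using congrArg Subtype.val e.symm⟩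
  have k : ∀ b : φ.ker, η (b * b) = 1 := fun b => (map_mul η _ _).trans (o _ ((e b).trans b.2))
  refine ⟨fun h => ?_, fun ⟨b, h⟩ => h ▸ k b⟩
  obtain ⟨b, r | r⟩ := q v (by rw [MonoidHom.mem_ker, ← e, h, map_one])
  · exact ⟨b, r⟩
  obtain ⟨w, rfl⟩ := s z
  obtain ⟨c, t⟩ := q w ((e w).symm.trans hz)
  rw [r, map_mul, k, one_mul] at h
  exact absurd (by rcases t with t | t; exacts [t ▸ k c, by rw [t, map_mul, k, h, one_mul]]) n

namespace T

theorem emb0 {X : Type} [Group X] (p : Group.IsPerfect X) (σ : X →* Cfsg.Spor.Fi22) (s : Function.Surjective σ) (c : σ.ker ≤ center X) (o : ∀ z ∈ σ.ker, z * z = 1)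
    {z : X} (hz : z ∈ σ.ker) (n : z ≠ 1) {t : Cfsg.Spor.Fi23} (d : t ∈ F23.D) :
    ∃ ι : X →* Cfsg.Spor.Fi23, Function.Injective ι ∧ ι.range = centralizer {t} ∧ ι z = t := by
  have := F22.fin
  have l := loc23 F23 F22 _ d
  obtain ⟨τ, h⟩ := l.cc
  obtain ⟨π, h1, h2, h3⟩ := h.hom' F22.closure_D F22.center_eq
  obtain ⟨U, _, _, φ, p', a, b, u⟩ := Cfsg.Agent.S3960.result (qs_of_simple simple_Fi22 (by rw [F22.card.trans (rfl : _ = 64561751654400)]; norm_num)).1.1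
  obtain ⟨η, e, -⟩ := u X σ s c
  obtain ⟨ζ, e', -⟩ := u _ π h2 h3.le
  obtain ⟨f, hf⟩ := Cfsg.Agent.S2053.result.2 U φ ⟨a, b, p'.1.ge.trans' le_top⟩
  have k : ∀ v, π (ζ v) = φ v := DFunLike.congr_fun e'
  have k' : ∀ v, σ (η v) = φ v := DFunLike.congr_fun e
  have c2 : ∀ z ∈ π.ker, (z : Cfsg.Spor.Fi23) = 1 ∨ z = t := fun z hz =>
    l.c2 z z.2 fun x hx => congrArg Subtype.val (mem_center_iff.1 (h3.le hz) ⟨x, subset_closure hx⟩).symm
  have o' : ∀ z ∈ π.ker, z * z = 1 := fun z hz => Subtype.ext (by rcases c2 z hz with e | e <;> simp [e, F23.t3.sq _ d])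
  have s1 : Function.Surjective η := MonoidHom.range_eq_top.1 (top_of_cen p fun x => let ⟨v, hv⟩ := a (σ x); ⟨_, ⟨v, rfl⟩, c (by simp [k', hv])⟩)
  have s2 : Function.Surjective ζ := MonoidHom.range_eq_top.1 (top_of_cen (qs23 F23 d).1 fun x => let ⟨v, hv⟩ := a (π x); ⟨_, ⟨v, rfl⟩, h3.le (by simp [k, hv])⟩)
  have m : (⟨t, l.mem⟩ : closure (Dp F23.D t)) ∈ π.ker := by rw [h3, l.cen]; exact mem_zpowers _
  have i : ∀ v, η v = 1 ↔ ζ v = 1 := fun v => (ker_sq hf k' s1 o hz n v).trans (ker_sq hf k s2 o' m (fun e => F23.t3.ne _ d (congrArg Subtype.val e)) v).symm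
  let ψ := η.liftOfSurjective s1 ⟨ζ, fun v hv => (i v).1 hv⟩
  have y : ∀ v, ψ (η v) = ζ v := η.liftOfRightInverse_comp_apply _ _ _
  have j : Function.Injective ψ := (injective_iff_map_eq_one _).2 fun x hx => by obtain ⟨v, rfl⟩ := s1 x; exact (i v).2 ((y v).symm.trans hx)
  refine ⟨(Subgroup.subtype _).comp ψ, (subtype_injective _).comp j, l.eq ▸ Subgroup.ext fun x => ⟨by rintro ⟨w, rfl⟩; exact (ψ w).2, fun hx => ?_⟩, ?_⟩
  · obtain ⟨v, hv⟩ := s2 ⟨x, hx⟩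
    exact ⟨η v, congrArg Subtype.val ((y v).trans hv)⟩
  · obtain ⟨v, rfl⟩ := s1 z
    exact (c2 (ψ (η v)) (by rw [MonoidHom.mem_ker, y, k, ← k']; exact hz)).resolve_left fun e => n (j ((Subtype.ext e).trans (map_one ψ).symm))

noncomputable def BU : List (Pc × List ℕ) := [((10, []), [14, 16]), ((6, []), [13, 16, 17]), ((4, []), [13, 14]), ((7, []), [11]), ((2, []), [7, 10]), ((0, []), [7]), ((3, [11, 6, 10, 11]), [7, 8, 9, 11, 12, 13, 15, 17]), ((5, [12, 9, 6, 12]), [7, 9, 12, 13, 14, 15]), ((2, [3, 4, 7, 3]), [7, 8, 10, 14]), ((0, [11, 4, 7, 11, 9]), [7, 8, 9, 10, 11, 12, 14]), ((1, [11, 0, 7, 11, 3]), [11, 13, 14, 15, 16]), ((4, [11, 7, 10, 11, 1]), [7, 9, 10, 12, 13, 17]), ((4, [11, 6, 10, 11, 1]), [7, 8, 13, 14]), ((0, [11, 2, 4, 11, 9]), [7, 8, 10, 12, 13, 14, 17]), ((0, [11, 1, 5, 11, 12]), [7, 12, 13, 15]), ((0, [11, 2, 7, 11, 9]), [7, 10, 12, 13, 15, 17]), ((0, [11, 1, 7,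 11, 4, 3]), [11, 13, 15, 16, 17]), ((0, [11, 12, 4, 6, 11, 12]), [11, 14]), ((0, [11, 3, 6, 11, 4, 3]), [7, 8, 12, 14]), ((0, [11, 3, 6, 11, 2, 3]), [7, 9, 10, 15, 16, 17]), ((0, [11, 3, 6, 11, 7, 3]), [7, 8, 9, 11, 15, 16]), ((0, [11, 3, 10, 11, 4, 3]), [7, 9, 14, 16, 17]), ((0, [11, 3, 10, 11, 2, 3]), [7, 8, 9, 10, 11, 13, 14, 16])]

theorem ba23 (F : FM P23q G) : ∀ q ∈ B23, F.e q ∈ NN (F.zW W_s23) 18 7 := fun q hq => by
  obtain ⟨p, hp, rfl⟩ := List.mem_map.1 ((show B23 = BU.map Prod.fst from rfl) ▸ hq)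
  have := allL_iff.1 (by decide +kernel : allL (fun p : Pc × List ℕ => band (P23q.okq p.1) (inNW eq_23q W_s23 7 18 (tw p.1) p.2)) BU = true) p hp
  rw [band_eq, Bool.and_eq_true] at this
  exact F.ev_tw this.1 ▸ FM.inNW_spec (he_23q F) this.2

theorem nc23 (F : FM P23q G) : (F.D ∩ NN (F.zW W_s23) 18 7).ncard = 23 := by
  have o : ∀ q ∈ B23, P23q.okq q = true := allL_iff.1 (by decide +kernel)
  rw [show F.D ∩ NN (F.zW W_s23) 18 7 = F.S (P23q.bm B23) from Set.ext fun x => ⟨fun h => by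
    rw [← show P23q.cmL P23q.all B23 = P23q.bm B23 from by decide +kernel]
    exact (F.mem_cmL o).2 ⟨F.S_all.ge h.1, fun q hq => congrArg Subtype.val ((ea_s23 F).1.1.1 ⟨_, ba23 F q hq⟩ ⟨_, h.2⟩)⟩, fun h => ⟨F.S_sub _ h, by
    obtain ⟨q, hq, rfl⟩ := List.mem_map.1 ((F.mem_bm o).1 h); exact ba23 F q hq⟩⟩, F.ncard_S]
  decide +kernel

theorem tc23 (F : FM P23q G) : NN (F.zW W_s23) 18 0 ≤ centralizer {F.ev [10]} := FM.zW_le (W := W_s23) (FM.cwE (he_23q F) (by decide +kernel))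

theorem eg23 (F : FM P23 G) {a : ℕ} (h : P23.okq (a, []) = true) : F.e (a, []) = F.gs a := (F.ev_tw h).symm.trans (mul_one _)

theorem sqw (F : FM P23 G) (y w : List ℕ) (h : band (eqB P23.Ns P23.bs (appL y y) w) (eqB P23.Ns P23.bs (appL [10] y) (appL y [10])) = true) :
    ∃ z, Commute (F.e (10, [])) z ∧ z * z = F.ev w := by
  rw [band_eq, Bool.and_eq_true] at h
  exact ⟨F.ev y, F.ev_tw (q := (10, [])) (by decide +kernel) ▸ (F.ev_app _ _).symm.trans ((F.ev_eq h.2).trans (F.ev_app _ _)), (F.ev_app _ _).symm.trans (F.ev_eq h.1)⟩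

variable (F : FM P23 G) {t a b c : G}

theorem sAB (ht : t ∈ F.D) (ha : a ∈ Dp F.D t) (hb : b ∈ Dp F.D t) (n : a ≠ b) (k : Commute a b) :
    (∃ y, Commute t y ∧ y * y = a * b) ∧ ∃ y, Commute t y ∧ y * y = t * (a * b) := by
  obtain ⟨V, -, rfl, rfl, rfl⟩ := t3_23 F ht ha.1 hb.1 ha.2.1.symm ha.2.2 hb.2.1.symm hb.2.2 n k
  obtain ⟨y, h, e⟩ := sqw V [5, 6, 5, 4, 5] [6, 4] (by decide +kernel)
  obtain ⟨z, h', e'⟩ := sqw V [11, 9, 7, 12, 5, 12, 7, 9, 11, 1, 9, 12, 11, 5, 11, 12, 9, 2, 1, 0, 2] [10, 6, 4] (by decide +kernel)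
  refine ⟨⟨y, h, e.trans ?_⟩, z, h', e'.trans ?_⟩
  · rw [eg23 V (by decide +kernel), eg23 V (by decide +kernel)]; exact congrArg _ (mul_one _)
  · rw [eg23 V (by decide +kernel), eg23 V (by decide +kernel), eg23 V (by decide +kernel)]; exact congrArg _ (congrArg _ (mul_one _))

theorem sC (ht : t ∈ F.D) (ha : a ∈ Dp F.D t) (hb : b ∈ Dp F.D t) (hc : c ∈ Dp F.D t) (n : a ≠ b) (k : Commute a b) (n1 : a ≠ c) (k1 : Commute a c) (n2 : b ≠ c) (k2 : Commute b c) :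
    ∃ y, Commute t y ∧ y * y = a * (b * c) := by
  obtain ⟨V, -, rfl, rfl, rfl, rfl⟩ := t4_23 F ht ha.1 hb.1 hc.1 ha.2.1.symm ha.2.2 hb.2.1.symm hb.2.2 n k hc.2.1.symm hc.2.2 n1 k1 n2 k2
  obtain ⟨y, h, e⟩ := sqw V [5, 7, 11, 12, 9, 12, 11, 7, 3, 2, 11, 12, 9, 12, 11, 1, 4, 11, 12, 9, 12, 11, 5, 9, 11, 12, 8, 12, 11, 9, 1, 11, 12, 9, 12, 11, 2, 1, 0, 1, 11, 10, 7, 11, 4, 11, 7, 10, 11, 6, 11, 10, 6, 11, 3, 11, 6, 10, 12, 9, 12, 11, 1, 9, 11, 12, 8, 12, 11, 9, 5, 11, 12, 9, 12, 11, 4, 1, 11, 12, 9, 12, 11, 2, 3, 7, 11, 12, 9, 12, 11, 7, 5] [6, 4, 7] (by decide +kernel)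
  refine ⟨y, h, e.trans ?_⟩
  rw [eg23 V (by decide +kernel), eg23 V (by decide +kernel), eg23 V (by decide +kernel)]; exact congrArg _ (congrArg _ (mul_one _))

theorem cl23 (ht : t ∈ F.D) {x : G} (s : x * x = 1) (k : Commute t x) : x = 1 ∨ x = t ∨ x ∈ Dp F.D t ∨ t * x ∈ Dp F.D t ∨ ∃ y, Commute t y ∧ y * y = x := by
  obtain ⟨j, hj, l, h1, rfl, h2, h3, rfl⟩ := inv23 F x s
  have h4 := F.t3.commL h1 hj h2 h3 ht k
  have q := F.t3.sq _ ht
  match l, hj with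
  | [], _ => exact .inl rfl
  | [a], _ =>
    rw [List.prod_singleton]
    exact (eq_or_ne a t).elim (fun e => .inr (.inl e)) fun e => .inr (.inr (.inl ⟨h2 a (by simp), e, h4 a (by simp)⟩))
  | [a, b], _ =>
    have n : a ≠ b := by simpa using h1
    rw [List.prod_cons, List.prod_singleton]
    refine .inr (.inr (.inr ?_))
    rcases eq_or_ne a t with rfl | e
    · exact .inl (by rw [← mul_assoc, q, one_mul]; exact ⟨h2 b (by simp), n.symm, h4 b (by simp)⟩)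
    rcases eq_or_ne b t with rfl | e'
    · exact .inl (by rw [h3 a (by simp) b (by simp), ← mul_assoc, q, one_mul]; exact ⟨h2 a (by simp), n, h4 a (by simp)⟩)
    exact .inr (sAB F ht ⟨h2 a (by simp), e, h4 a (by simp)⟩ ⟨h2 b (by simp), e', h4 b (by simp)⟩ n (h3 a (by simp) b (by simp))).1
  | [a, b, c], _ =>
    have n : (a ≠ b ∧ a ≠ c) ∧ b ≠ c := by simpa using h1
    rw [List.prod_cons, List.prod_cons, List.prod_singleton]
    refine .inr (.inr (.inr (.inr ?_)))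
    have m : ∀ y ∈ [a, b, c], y ≠ t → y ∈ Dp F.D t := fun y ha e => ⟨h2 y ha, e, h4 y ha⟩
    rcases eq_or_ne a t with rfl | e
    · exact (sAB F ht (m b (by simp) n.1.1.symm) (m c (by simp) n.1.2.symm) n.2 (h3 b (by simp) c (by simp))).2
    rcases eq_or_ne b t with rfl | e'
    · rw [(h3 a (by simp) b (by simp)).left_comm]
      exact (sAB F ht (m a (by simp) e) (m c (by simp) n.2.symm) n.1.2 (h3 a (by simp) c (by simp))).2
    rcases eq_or_ne c t with rfl | e''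
    · rw [h3 b (by simp) c (by simp), (h3 a (by simp) c (by simp)).left_comm]
      exact (sAB F ht (m a (by simp) e) (m b (by simp) e') n.1.1 (h3 a (by simp) b (by simp))).2
    exact sC F ht (m a (by simp) e) (m b (by simp) e') (m c (by simp) e'') n.1.1 (h3 a (by simp) b (by simp)) n.1.2 (h3 a (by simp) c (by simp)) n.2 (h3 b (by simp) c (by simp))

theorem tr23 (ha : a ∈ Dp F.D (F.e (10, []))) : ∃ g, Commute (F.e (10, [])) g ∧ g * a * g⁻¹ = F.e (6, []) := by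
  obtain ⟨g, hg, e⟩ := FM.mv_spec (F := F) (H := ⊤) mv_23_1 (fun _ _ => mem_top _) (x := a)
    ((F.mem_dpL (by simpa using (by decide +kernel : P23.okq (10, []) = true))).2 ⟨F.S_all.ge ha.1, by simpa using ha.2⟩)
  exact ⟨g, (FM.mem_PS.1 hg).2 _ (by simp), e⟩

end T
end H7
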