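import Cfsg.Agent.H7.M24Orb

/-!
H7.M24Cnt: counting code words with decidable predicates (`cnt_supp`), orbits of set stabilisers on families of sets
(`orbSet`), conjugation helpers (`conj_fix`).
-/

namespace H7
open Cfsg MulAction
open scoped Pointwise

theorem cnt_supp {T : Set (Finset GolayPt)} (Q : ℕ → Prop) [DecidablePred Q] (hT : T ⊆ CC)
    (h : ∀ m < 2 ^ 24, fs m ∈ CC → (fs m ∈ T ↔ Q m)) : T.ncard = cntB (fun i => decide (Q (enc i))) 12 :=
  ncard_supp (fun m => decide (Q m)) hT fun m hm hc => by rw [h m hm hc, decide_eq_true_eq]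

theorem all_supp {P : Finset GolayPt → Prop} (Q : ℕ → Prop) [DecidablePred Q]
    (hf : allLt (fun i => decide (Q (enc i))) 4096 = true) (h : ∀ m < 2 ^ 24, Q m → P (fs m)) : ∀ s ∈ CC, P s :=
  forall_supp (fun m => decide (Q m)) hf fun m hm hq => h m hm (of_decide_eq_true hq)

theorem oct_iff {m : ℕ} (hm : fs m ∈ CC) : fs m ∈ octads ↔ pc24 m = 8 := by simp [mem_octads, hm, card_fs]
theorem dod_iff {m : ℕ} (hm : fs m ∈ CC) : fs m ∈ dodecads ↔ pc24 m = 12 := by simp [mem_dodecads, hm, card_fs]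
theorem card_inter_fs (a b : ℕ) : (fs a ∩ fs b).card = pc24 (a &&& b) := by rw [← gC.fs_and, card_fs]
theorem pt_mem {i : ℕ} (hi : i < 24) (m : ℕ) : pt i ∈ fs m ↔ m.testBit i = true := gC.dec_mem_fs hi
theorem pt23_mem (m : ℕ) : pt 23 ∈ fs m ↔ m.testBit 23 = true := pt_mem (by norm_num) m
theorem pt0_mem (m : ℕ) : pt 0 ∈ fs m ↔ m.testBit 0 = true := pt_mem (by norm_num) m
theorem fs_eq_iff {a b : ℕ} (ha : a < 2 ^ 24) (hb : b < 2 ^ 24) : fs a = fs b ↔ a = b :=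
  ⟨gC.fs_inj ha hb, fun h => h ▸ rfl⟩
theorem exists_fs (s : Finset GolayPt) : ∃ m < 2 ^ 24, s = fs m := gC.exists_fs s
theorem disjoint_fs {a b : ℕ} : Disjoint (fs a) (fs b) ↔ pc24 (a &&& b) = 0 := by
  rw [Finset.disjoint_iff_inter_eq_empty, ← Finset.card_eq_zero, card_inter_fs]
theorem subset_fs {a b : ℕ} (ha : a < 2 ^ 24) : fs a ⊆ fs b ↔ a &&& b = a := by
  rw [← sub_iff ha, sub, Nat.beq_eq]; rfl
theorem colP_lt (P : ℕ → ℕ) (i : ℕ) : colP 24 P i < 2 ^ 24 :=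
  Nat.lt_pow_two_of_testBit _ fun p hp => by
    have : ¬ p < 24 := by omega
    simp [testBit_colP, this]

theorem orbSet {S : Sys M24 (Finset GolayPt)} (hS : S.ev = S0.ev) {P : ℕ → ℕ} (hd : ∀ i, S.dec i = fs (colP 24 P i))
    {T : Set (Finset GolayPt)} (hT : T = dset S.n S.dec (ones S.n)) (ms : List ℕ) (ws : List (List ℕ))
    (hfix : fixS S0.Ns ws ms = true) (dom : ℕ → Prop) [DecidablePred dom] (f : ℕ → ℕ) (r : ℕ) (c : List (ℕ × ℕ))
    (hc : orbCert S.n S.Ns ws r (fun i => decide (dom (colP 24 P i))) (fun i => f (colP 24 P i)) c = true)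
    {a b : ℕ} (ha : a < 2 ^ 24) (hb : b < 2 ^ 24) (ha' : fs a ∈ T) (hb' : fs b ∈ T) (da : dom a) (db : dom b)
    (e : f a = f b) : ∃ g : M24, (∀ m ∈ ms, g • fs m = fs m) ∧ g • fs a = fs b := by
  obtain ⟨i, hi, ei⟩ := exists_dec_of_eq hT ha'
  obtain ⟨j, hj, ej⟩ := exists_dec_of_eq hT hb'
  have e1 : colP 24 P i = a := gC.fs_inj (colP_lt _ _) ha ((hd i).symm.trans ei)
  have e2 : colP 24 P j = b := gC.fs_inj (colP_lt _ _) hb ((hd j).symm.trans ej)
  obtain ⟨g, hg, h⟩ := Sys.orbCert_spec hc (H := fixL M24 fs ms) (fun w hw => hS ▸ word_fix hfix w hw) hi hj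
    (by simpa [e1] using da) (by simpa [e2] using db) (by rw [e1, e2, e])
  exact ⟨g, hg, by rw [← ei, ← ej, h]⟩

theorem conj_fix {G Ω : Type*} [Group G] [MulAction G Ω] (k : G) {g : G} {a b : Ω} (h : g • a = b) :
    (k * g * k⁻¹) • k • a = k • b := by simp [mul_smul, h]

theorem fix_pt {g : M24} {ms : List ℕ} (h : ∀ m ∈ ms, g • fs m = fs m) {i : ℕ} (hi : i < 24) (hm : bit i ∈ ms) :
    g • pt i = pt i := smul_pt_of_fs hi hi (h _ hm)

theorem one_trans (p q : GolayPt) : ∃ g : M24, g • p = q :=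
  (multi_le (k := 1) (by norm_num) |> MulAction.is_one_pretransitive_iff.1).exists_smul_eq p q

theorem smul_subset_iff (g : M24) {s t : Finset GolayPt} : g • s ⊆ g • t ↔ s ⊆ t :=
  Finset.smul_finset_subset_smul_finset_iff

theorem disjoint_smul_iff (g : M24) {s t : Finset GolayPt} : Disjoint (g • s) (g • t) ↔ Disjoint s t := by
  rw [Finset.disjoint_iff_inter_eq_empty, Finset.disjoint_iff_inter_eq_empty, ← Finset.card_eq_zero,
    ← Finset.card_eq_zero, card_inter_smul]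

theorem exists_octad_smul (g : M24) (P : Finset GolayPt → Prop) : (∃ o ∈ octads, P o) ↔ ∃ o ∈ octads, P (g • o) :=
  ⟨fun ⟨o, ho, h⟩ => ⟨g⁻¹ • o, by simpa using ho, by simpa using h⟩, fun ⟨o, ho, h⟩ => ⟨_, by simpa using ho, h⟩⟩

/-- points reached from `pt j` by words fixing the masks `ms` -/
theorem orbPt (ms : List ℕ) (ws : List (List ℕ)) (hfix : fixS S0.Ns ws ms = true) (r j D : ℕ)
    (hc : sub D (growN S0.Ns ws r (bit j)) = true) {x : GolayPt} (hx : x ∈ fs D) :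
    ∃ g : M24, (∀ m ∈ ms, g • fs m = fs m) ∧ g • x = pt j := by
  obtain ⟨g, hg, h⟩ := Sys.growN_smul (S := S0) (H := fixL M24 fs ms) (fun w hw => word_fix hfix w hw) r j
    (gC.code_lt x) (sub_spec hc ((gC.mem_fs _ _).1 hx))
  exact ⟨g, hg, by rw [← gC.dec_code x]; exact h⟩

end H7
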