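import Cfsg.Agent.H7.Dc22
import Cfsg.Agent.H7.T.Ms23_0

/-! H7.Ms23: the Schur multiplier of `Fi23`. -/

namespace H7
open Subgroup
open scoped commutatorElement

theorem comm_le_of_cen {X : Type*} [Group X] {H : Subgroup X} (h : ∀ x, ∃ y ∈ H, y⁻¹ * x ∈ center X) : commutator X ≤ H :=
  commutator_le.2 fun x _ y _ => by
    obtain ⟨a, ha, s⟩ := h x
    obtain ⟨b, hb, t⟩ := h y
    have c : ∀ {s}, s ∈ center X → ∀ g, s * g * s⁻¹ = g := fun h g => mul_inv_eq_iff_eq_mul.2 (mem_center_iff.1 h g).symm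
    have e : ⁅x, y⁆ = a * (a⁻¹ * x * y * (a⁻¹ * x)⁻¹) * a⁻¹ * y⁻¹ := by rw [commutatorElement_def]; group
    rw [e, c s, show a * y * a⁻¹ * y⁻¹ = a * b * (b⁻¹ * y * a⁻¹ * (b⁻¹ * y)⁻¹) * b⁻¹ by group, c t]
    exact mul_mem (mul_mem (mul_mem ha hb) (inv_mem ha)) (inv_mem hb)

section
variable {X G : Type*} [Group X] [Group G] {σ : X →* G} (c : σ.ker ≤ center X) (o : ∀ z ∈ σ.ker, z * z = 1 → z = 1)
include c o

theorem lift_uniq {x y : X} (hx : x * x = 1) (hy : y * y = 1) (e : σ x = σ y) : x = y := by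
  have z : x⁻¹ * y ∈ σ.ker := by simp [e]
  refine inv_mul_eq_one.1 (o _ z ?_)
  rwa [← mul_inv_cancel_left x y, Commute.mul_mul_mul_comm (mem_center_iff.1 (c z) _).symm, hx, one_mul] at hy

theorem inv_kill {x g : X} {n : ℕ} (h : g * x * g⁻¹ = x⁻¹) (e : σ x ^ n = 1) : x ^ n = 1 := by
  have z : x ^ n ∈ σ.ker := by simpa using e
  refine o _ z ?_
  have : g * x ^ n * g⁻¹ = x⁻¹ ^ n := by rw [← h, conj_pow]
  rw [mem_center_iff.1 (c z), mul_inv_cancel_right, inv_pow] at this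
  exact mul_eq_one_iff_eq_inv.2 this

omit c in
theorem lift_ex [Finite X] (s : Function.Surjective σ) {x : G} (hx : x * x = 1) : ∃ y, y * y = 1 ∧ σ y = x := by
  obtain ⟨y, rfl⟩ := s x
  rcases Nat.even_or_odd (orderOf (y * y)) with ⟨k, h⟩ | ⟨k, h⟩
  · have := orderOf_dvd_of_pow_eq_one (o ((y * y) ^ k) (by simp [hx]) (by rw [← pow_add, ← h, pow_orderOf_eq_one]))
    have p := orderOf_pos (y * y)
    exact absurd (Nat.le_of_dvd (by omega) this) (by omega)
  · exact ⟨y ^ (2 * k + 1), by rw [← (Commute.refl y).mul_pow, ← h, pow_orderOf_eq_one], by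
      rw [map_pow, pow_succ, pow_mul, pow_two, hx, one_pow, one_mul]⟩
end

namespace T

theorem noinv23 {X : Type} [Group X] [Finite X] (σ : X →* Cfsg.Spor.Fi23) (hσ : Cfsg.IsStemExtension σ) : ∀ z ∈ σ.ker, z * z = 1 → z = 1 := fun z hz o => by
  have := F22.fin
  have := F23.fin
  have d := F23.gs_mem (a := 0) (by decide)
  have l := loc23 F23 F22 _ d
  obtain ⟨τ, h⟩ := l.cc
  obtain ⟨π, -, h2, h3⟩ := h.hom' F22.closure_D F22.center_eq
  let K := closure (Dp F23.D (F23.gs 0))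
  have i : (K.comap σ).index = 2 * 15835 + 1 := by
    have b := π.ker.card_mul_index
    rw [index_ker, MonoidHom.range_eq_top.2 h2, card_top, h3, l.cen, Nat.card_congr (subgroupOfEquivOfLe (zpowers_le.2 l.mem)).toEquiv, Nat.card_zpowers,
      orderOf_eq_prime (p := 2) (by rw [pow_two, F23.t3.sq _ d]) (F23.t3.ne _ d), F22.card.trans (rfl : _ = 64561751654400)] at b
    have e := K.card_mul_index
    rw [← b, F23.card.trans (rfl : _ = 4089470473293004800)] at e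
    rw [index_comap_of_surjective _ hσ.1]; omega
  have m : z ∈ K.comap σ := by simp [mem_comap, MonoidHom.mem_ker.1 hz]
  have t : (⟨z, m⟩ : K.comap σ) ∈ commutator _ := by
    have e := MonoidHom.transfer_eq_pow (Abelianization.of (G := K.comap σ)) z fun k g _ => by
      rw [mul_assoc, ← mem_center_iff.1 (pow_mem (hσ.2.1 hz) k), inv_mul_cancel_left]
    rw [Abelianization.commutator_subset_ker _ (hσ.2.2 hz)] at e
    have e' := (QuotientGroup.eq_one_iff _).1 e.symm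
    have r : z ^ (K.comap σ).index = z := by rw [i, pow_succ, pow_mul, pow_two, o, one_pow, one_mul]
    simpa only [r] using e'
  obtain ⟨U, _, _, φ, p, a, b, u⟩ := Cfsg.Agent.S3960.result (qs23 F23 d).1
  have c : (σ.subgroupComap K).ker ≤ center _ := fun x hx => mem_center_iff.2 fun y =>
    Subtype.ext (mem_center_iff.1 (hσ.2.1 (congrArg Subtype.val hx)) y.1)
  obtain ⟨η, e, -⟩ := u _ _ (σ.subgroupComap_surjective_of_surjective K hσ.1) c
  have k : ∀ v, σ.subgroupComap K (η v) = φ v := DFunLike.congr_fun e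
  obtain ⟨v, hv⟩ := comm_le_of_cen (H := η.range) (fun x => let ⟨v, hv⟩ := a (σ.subgroupComap K x); ⟨_, ⟨v, rfl⟩, c (by simp [k, hv])⟩) t
  obtain ⟨f, hf⟩ := Cfsg.Agent.S2053.result.2 U (π.comp φ) ⟨h2.comp a, fun x hx => by
    rw [← Group.IsPerfect.upperCentralSeries_eq_center U (n := 2) (by decide), Subgroup.mem_upperCentralSeries_succ_iff, Subgroup.upperCentralSeries_one]
    exact fun y => b (by rw [MonoidHom.mem_ker, map_commutatorElement, commutatorElement_eq_one_iff_mul_comm]; exact (mem_center_iff.1 (h3.le hx) _).symm), p.1.ge.trans' le_top⟩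
  have o' : ∀ z ∈ π.ker, z * z = 1 := fun z hz => Subtype.ext (by
    rcases l.c2 z z.2 fun x hx => congrArg Subtype.val (mem_center_iff.1 (h3.le hz) ⟨x, subset_closure hx⟩).symm with e | e <;> simp [e, F23.t3.sq _ d])
  have q : ∀ v ∈ (π.comp φ).ker, ∃ b : (π.comp φ).ker, (b.1 * b) ^ 3 = 1 ∧ (v = b * b ∨ v = b * b * f (Multiplicative.ofAdd 1)) := fun v hv => by
    obtain ⟨a, e⟩ := hf ⟨v, hv⟩
    obtain ⟨b, s, r⟩ := (by decide : ∀ a : Multiplicative (ZMod 6), ∃ b : Multiplicative (ZMod 6), (b * b) ^ 3 = 1 ∧ (a = b * b ∨ a = b * b * Multiplicative.ofAdd 1)) a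
    exact ⟨f b, by simpa using congrArg (fun x => (f x).1) s, r.imp (fun r => by simpa [r] using congrArg Subtype.val e.symm) fun r => by simpa [r] using congrArg Subtype.val e.symm⟩
  have n : φ (f (Multiplicative.ofAdd 1)) ≠ 1 := fun n => by
    obtain ⟨v, hv⟩ := a ⟨_, l.mem⟩
    obtain ⟨b, -, r⟩ := q v (by rw [MonoidHom.mem_ker, MonoidHom.comp_apply, hv, ← MonoidHom.mem_ker, h3, l.cen]; exact mem_zpowers _)
    have := o' (φ b) b.2
    exact F23.t3.ne _ d (congrArg Subtype.val (hv.symm.trans (show φ v = 1 by rcases r with r | r <;> simp [r, this, n])))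
  have w : φ v = 1 := by rw [← k, hv]; exact Subtype.ext hz
  obtain ⟨b, s, r | r⟩ := q v (by simp [w])
  · have := congrArg (fun x => (η x).1) s
    simp only [← r, map_pow, hv, map_one, coe_one, SubmonoidClass.coe_pow] at this
    rwa [pow_succ, pow_two, o, one_mul] at this
  · exact absurd (by simpa [r, o' (φ b) b.2] using w) n

def g23m : List ℕ := [0, 11, 12, 9, 12, 11, 0, 7, 4, 3, 2, 1, 3, 4, 12, 10, 5, 12, 3, 12, 5, 10, 12, 3, 2, 3, 5, 11, 0, 1, 11, 8, 7, 3, 7, 8, 11, 1, 0, 11, 7, 6, 4, 11, 5, 1, 11, 0, 11, 1, 5, 11, 4, 6, 8, 11, 5, 0, 11, 1, 11, 0, 5, 11, 8, 6, 3, 11, 4, 1, 11, 0, 11, 1, 4, 11, 3, 6, 8, 5, 3, 11, 7, 0, 11, 1, 11, 0, 7, 11, 3, 5, 10, 9, 6, 9, 4, 3, 2, 1, 12, 11, 8, 11, 12, 1, 2, 3, 4, 10, 9, 6]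
def x23m : List ℕ := [7, 8, 3, 7, 4, 3, 2, 3, 4, 7, 3, 8, 7]

theorem g23m_0 : eqB P23.Ns P23.bs (g23m ++ x23m) ([4] ++ g23m) = true := by decide +kernel
theorem g23m_1 : eqB P23.Ns P23.bs (g23m ++ [1]) ([3] ++ g23m) = true := by decide +kernel
theorem g23m_2 : eqB P23.Ns P23.bs (g23m ++ [2, 5]) ([2, 5] ++ g23m) = true := by decide +kernel
theorem g23m_3 : eqB P23.Ns P23.bs (g23m ++ [3]) ([1] ++ g23m) = true := by decide +kernel
theorem g23m_4 : eqB P23.Ns P23.bs (g23m ++ [4]) (x23m ++ g23m) = true := by decide +kernel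
theorem r23m : allL (fixB P23.Ns P23.bs) R_F23m = true := by decide +kernel
theorem s23m : ∀ r ∈ R_F23x, r = rp (r.length / 2) [r.headD 0, r.tail.headD 0] := by decide +kernel
noncomputable def L23m : List (ℕ × List ℕ) := [((10 : ℕ), tw (1, [2, 3, 4, 5, 6, 7, 3, 2, 4, 3, 5, 4, 7, 3, 2, 1, 9, 6, 5, 4, 3, 2, 7, 3, 4, 5, 6, 9])),
    (11, tw (0, [1, 2, 3, 4, 5, 6, 7, 3, 2, 1, 4, 3, 2, 5, 4, 7, 8, 7, 3, 2, 1, 4, 3, 2, 5, 4, 3, 7, 3, 4, 8, 7, 3, 2, 9, 6, 5, 4, 3, 2, 1, 7, 3, 8])),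
    (12, tw (0, [1, 2, 3, 4, 5, 6, 7, 3, 2, 1, 4, 3, 5, 8, 7, 3, 2, 1, 4, 3, 2, 5, 4, 3, 7, 3, 2, 1, 4, 8, 7, 3, 2, 9, 6, 5, 4, 3, 2, 1, 0, 7, 3, 2, 1]))]
theorem l23m : ∀ t ∈ L23m,
    eqB P23.Ns P23.bs [t.1] t.2 = true ∧ ∀ a ∈ t.2, a ∈ [0, 1, 2, 3, 4, 5, 6, 7, 8, 9] := by decide +kernel

theorem triv23 {X : Type} [Group X] [Finite X] (σ : X →* Cfsg.Spor.Fi23) (hσ : Cfsg.IsStemExtension σ) : σ.ker = ⊥ := by
  have := F23.fin
  have o := noinv23 σ hσ
  have c := hσ.2.1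
  have ex : ∀ a, ∃ y : X, y * y = 1 ∧ (a < 13 → σ y = F23.gs a) := fun a => by
    by_cases h : a < 13
    · exact (lift_ex o hσ.1 (F23.t3.sq _ (F23.gs_mem (a := a) h))).imp fun _ k => ⟨k.1, fun _ => k.2⟩
    · exact ⟨1, mul_one _, fun k => absurd k h⟩
  choose gs h1 h2 using ex
  have ev : ∀ w, P23.okw w = true → σ (wev gs w) = F23.ev w := fun w h => by
    have := FM.okw_spec h
    rw [map_wev]; exact congrArg List.prod (List.map_congr_left fun a ha => h2 a (this a ha))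
  have r0 : ∀ r ∈ R_F23m, σ (wev gs r) = 1 := fun r hr =>
    (ev r (allL_iff.1 (by decide +kernel : allL P23.okw R_F23m = true) r hr)).trans (F23.ev_one (allL_iff.1 r23m r hr))
  have eR : R_F23m = R_F23x ++ [rp 4 (x23m ++ ([1] ++ ([2, 5] ++ ([3] ++ [4])))), rp 9 [0, 1, 2, 3, 4, 5, 7]] := by decide +kernel
  have r1 : Rels gs R_F23x := fun r hr => by
    have := r0 r (eR ▸ List.mem_append_left _ hr)
    rw [s23m r hr, wev_rp] at this ⊢
    refine inv_kill c o (g := gs (r.headD 0)) ?_ (by rwa [map_pow] at this)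
    simp only [wev_cons, wev_nil, mul_one, mul_inv_rev, ← mul_assoc, h1, one_mul, inv_eq_of_mul_eq_one_left (h1 _)]
  have cj : ∀ {v w}, P23.okw v = true → P23.okw w = true → wev gs v * wev gs v = 1 → wev gs w * wev gs w = 1 →
      eqB P23.Ns P23.bs (g23m ++ v) (w ++ g23m) = true → wev gs g23m * wev gs v * (wev gs g23m)⁻¹ = (wev gs w)⁻¹ := fun {v w} a b s t e => by
    rw [inv_eq_of_mul_eq_one_left t]
    refine lift_uniq c o (by rw [conj_mul, s, mul_one, mul_inv_cancel]) t ?_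
    have := F23.ev_eq e
    rw [FM.ev, FM.ev, wev_append, wev_append] at this
    rw [map_mul, map_mul, map_inv, ev _ a, ev _ b, ev g23m (by decide +kernel)]
    exact mul_inv_eq_iff_eq_mul.2 this
  have s1 : ∀ a, wev gs [a] * wev gs [a] = 1 := fun a => by simp [h1]
  have s2 : wev gs [2, 5] * wev gs [2, 5] = 1 := (wev_append _ _ _).symm.trans (r1 _ (by decide +kernel))
  have s3 : wev gs x23m * wev gs x23m = 1 := mul_eq_one_iff_eq_inv.2 (wev_rev (v := x23m) fun a _ => h1 a)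
  have r2 : Rels gs R_F23m := eR ▸ r1.append (List.forall_mem_cons.2 ⟨by
    rw [wev_rp]
    refine inv_kill c o (g := wev gs g23m) ?_ (by rw [← map_pow, ← wev_rp]; exact r0 _ (by decide +kernel))
    simp only [wev_append, mul_inv_rev]
    rw [← conj_mul, ← conj_mul, ← conj_mul, ← conj_mul, cj (by decide) (by decide) s3 (s1 _) g23m_0, cj (by decide) (by decide) (s1 _) (s1 _) g23m_1, cj (by decide) (by decide) s2 s2 g23m_2,
      cj (by decide) (by decide) (s1 _) (s1 _) g23m_3, cj (by decide) (by decide) (s1 _) s3 g23m_4]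
    simp only [mul_assoc], List.forall_mem_singleton.2 (o _ (r0 _ (by decide +kernel)) ((wev_append _ _ _).symm.trans (der_e7x X gs r1 _ (by decide +kernel))))⟩)
  have ub := ub_F23 X gs (der_F23m X gs r2)
  rw [genW_nil, IdxLe.bot_iff] at ub
  have gen : (genW gs (sing [0, 1, 2, 3, 4, 5, 6, 7, 8, 9])).map σ = ⊤ := by
    have m : ∀ a ∈ [0, 1, 2, 3, 4, 5, 6, 7, 8, 9], F23.gs a ∈ (genW gs (sing [0, 1, 2, 3, 4, 5, 6, 7, 8, 9])).map σ := fun a h =>
      ⟨_, gs_mem_sing h, h2 a (by simp at h; omega)⟩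
    refine F23.gen _ fun a (h : a < 13) => ?_
    by_cases k : a < 10
    · exact m a (by simp; omega)
    · obtain ⟨t, ht, rfl⟩ : ∃ t ∈ L23m, t.1 = a := List.mem_map.1 (show a ∈ [10, 11, 12] by simp; omega)
      have := F23.ev_eq (l23m t ht).1
      rw [FM.ev, wev_cons, wev_nil, mul_one] at this
      exact this ▸ wev_mem_of_letters fun a ha => m a ((l23m t ht).2 a ha)
  have p := (qs_of_simple simple_Fi23 (by rw [F23.card.trans (rfl : _ = 4089470473293004800)]; norm_num)).1.1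
  have top : genW gs (sing [0, 1, 2, 3, 4, 5, 6, 7, 8, 9]) = ⊤ := top_of_cen ⟨eq_top_iff.2 fun x _ => by
      obtain ⟨y, hy, e⟩ := ((map_commutator _ _ σ).trans (by rw [map_top_of_surjective _ hσ.1]; exact p.1)).ge (mem_top (σ x))
      rw [← mul_inv_cancel_left y x]; exact mul_mem hy (hσ.2.2 (by simp [e]))⟩ fun x =>
    let ⟨y, hy, e⟩ := gen.ge (mem_top (σ x)); ⟨y, hy, c (by simp [e])⟩
  have b := σ.ker.card_mul_index
  rw [index_ker, MonoidHom.range_eq_top.2 hσ.1, card_top, F23.card.trans (rfl : _ = 4089470473293004800)] at b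
  rw [top, card_top] at ub
  exact eq_bot_of_card_le _ (by omega)

end T
end H7
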