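import Cfsg.Agent.H7.TL6
import Cfsg.Agent.H7.T.Ce22_1
import Cfsg.Agent.H7.Br22

/-! H7.Two22: the centralizer of a product of two transpositions in `Fi22`. -/

namespace H7.T
open Subgroup

universe u
variable {G : Type u} [Group G]

theorem cd_2b (F : FM P22 G) : centralizer {F.e (0,[]), F.e (2,[])} ≤ centralizer {F.e (0,[]) * F.e (2,[])} ∧
    ((centralizer {F.e (0,[]), F.e (2,[])}).subgroupOf (centralizer {F.e (0,[]) * F.e (2,[])})).index = 2 ∧
    Nat.card (centralizer {F.e (0,[]) * F.e (2,[])}) = 2 ^ 10 * 51840 := by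
  have := F.fin
  have f : Fac F.D [F.e (0,[]), F.e (2,[])] 2 _ := F.fac (qs := [(0,[]),(2,[])]) (m := P22.all) (by decide +kernel)
  rw [← f.2.2.2.2, List.prod_cons, List.prod_singleton] at f
  have l : centralizer {F.e (0,[]), F.e (2,[])} ≤ centralizer {F.e (0,[]) * F.e (2,[])} := fun g hg => mem_centralizer_singleton_iff.2 (f.fix fun x hx => by
    rwa [conj_eq_self.2 (mem_cent.1 hg x (by simpa using hx))])
  have i : ((centralizer {F.e (0,[]), F.e (2,[])}).subgroupOf (centralizer {F.e (0,[]) * F.e (2,[])})).index = 2 := by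
    rw [← top_inf_eq (centralizer {_ * _})]
    exact index_of_quot (fac_quot (fun g _ => F.conj_mem g) (uq22 F le_rfl) f (F.sw2 f (1,[]) (by decide +kernel)) (fun _ _ _ _ => mem_top _) fun g _ => by simp [mem_cent])
  refine ⟨l, i, ?_⟩
  rw [← card_mul_index, i, Nat.card_congr (subgroupOfEquivOfLe l).toEquiv, ← top_inf_eq (centralizer _), ← F.PS2, cd2_22]; rfl

theorem pk_2b (F : FM P22q G) : NN (F.zW W_e22) 10 0 ≤ centralizer {F.ev [0], F.ev [2]} ∧ centralizer (NN (F.zW W_e22) 10 0 : Set G) = closure {F.ev [0], F.ev [2]} ∧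
    (∀ x ∈ NN (F.zW W_e22) 10 0, x ^ 2 ∈ zpowers (F.ev [29])) ∧
    ∃ (E : Type) (_ : Group E) (_ : Finite E), Cfsg.IsExtraspecial 2 E ∧ Nat.card E = 2 ^ 9 ∧ Nonempty (NN (F.zW W_e22) 10 0 ≃* Multiplicative (ZMod 2) × E) := by
  have := F.fin
  have : Fact (Nat.Prime 2) := ⟨Nat.prime_two⟩
  have h := pcs_e22 F
  have f := F.fac (qs := [(0,[]),(2,[])]) (m := P22q.all) (by decide +kernel)
  have a : F.ev [0] ∈ F.D := (F.ev_tw (q := (0,[])) (by decide +kernel)).symm ▸ F.e_mem (by decide +kernel)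
  have b : F.ev [2] ∈ F.D := (F.ev_tw (q := (2,[])) (by decide +kernel)).symm ▸ F.e_mem (by decide +kernel)
  have c0 : ∀ x ∈ NN (F.zW W_e22) 10 0, Commute x (F.ev [0]) := fun x hx =>
    mem_centralizer_singleton_iff.1 (FM.zW_le (W := W_e22) (F.cw (j := [0]) (by decide +kernel)) hx)
  have c2 : ∀ x ∈ NN (F.zW W_e22) 10 0, Commute x (F.ev [2]) := fun x hx =>
    mem_centralizer_singleton_iff.1 (FM.zW_le (W := W_e22) (F.cw (j := [2]) (by decide +kernel)) hx)
  have z : F.ev [29] = F.ev [0] * F.ev [2] := (zz_e22 F).trans (F.ev_app [0] [2])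
  have m : F.ev [0] ∈ NN (F.zW W_e22) 10 0 := NN_mem le_rfl (by decide)
  have n : F.ev [0] ∉ NN (F.zW W_e22) 10 1 := h.nmem le_rfl (by decide)
  have mz : F.ev [29] ∈ NN (F.zW W_e22) 10 1 := NN_mem (j := 9) (by decide) (by decide)
  have nz : F.ev [29] ≠ 1 := fun e => h.nmem (i := 9) (by decide) (by decide) ((show F.zW W_e22 9 = 1 from e).symm ▸ one_mem _)
  obtain ⟨c4, el⟩ := card_pair (F.t3.sq _ a) (F.t3.sq _ b) (c2 _ m) (F.t3.ne _ a) (F.t3.ne _ b) fun e => nz (by rw [z, e, F.t3.sq _ b])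
  have ce : centralizer (NN (F.zW W_e22) 10 0 : Set G) = closure {F.ev [0], F.ev [2]} :=
    (eq_of_le_of_card_ge ((closure_le _).2 (by rintro _ (rfl | rfl); exacts [c0, c2])) ((ubh_ce22 F).trans c4.ge)).symm
  have l : NN (F.zW W_e22) 10 1 ≤ NN (F.zW W_e22) 10 0 := NN_mono (by decide)
  have dc : ∀ x ∈ NN (F.zW W_e22) 10 0, ∃ y ∈ NN (F.zW W_e22) 10 1, x = y ∨ x = F.ev [0] * y := fun x hx => by
    obtain ⟨e, he, d⟩ := h.dec le_rfl (by decide) hx
    refine ⟨_, d, ?_⟩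
    interval_cases e
    exacts [.inl (by simp), .inr (by rw [pow_one]; exact (mul_inv_cancel_left _ _).symm)]
  have w : H1.WS 2 (NN (F.zW W_e22) 10 1) (F.ev [29]) := ⟨mz, (Nat.card_zpowers _).symm.trans (NN_last (z := F.zW W_e22) (n := 9) ▸ h.card (by decide) (by decide)),
    fun x hx => z ▸ (c0 x (l hx)).mul_right (c2 x (l hx)), fun x hx y hy => (NN_last (z := F.zW W_e22) (n := 9)).le (cm_e22 F x (l hx) y (l hy))⟩
  have nd : H1.ND (NN (F.zW W_e22) 10 1) (F.ev [29]) := fun x hx k => by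
    rcases el x (ce.le fun g hg => by
      obtain ⟨y, hy, rfl | rfl⟩ := dc g hg
      exacts [(k _ hy).symm, ((c0 x (l hx)).mul_right (k _ hy)).symm]) with rfl | rfl | rfl | rfl
    exacts [one_mem _, absurd hx n, absurd (by simpa [z] using mul_mem mz (inv_mem hx)) n, z ▸ mem_zpowers _]
  obtain ⟨E, _, _, e1, ⟨e2⟩⟩ := extra_small w nd fun e => h.nmem (i := 1) (by decide) (by decide)
    (NN_mono (by decide) ((e.trans (NN_last (z := F.zW W_e22) (n := 9)).symm).le (NN_mem le_rfl (by decide))))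
  have k := h.card (i := 1) (by decide) (by decide)
  obtain ⟨e3⟩ := split_cent (orderOf_eq_prime ((pow_two _).trans (F.t3.sq _ a)) (F.t3.ne _ a)) m l n (fun x hx => (c0 x (l hx)).symm) (by rw [k, h.card le_rfl (by decide)]; rfl)
  refine ⟨fun x hx => mem_cent.2 (by simp [c0 x hx, c2 x hx]), ce, fun x hx => ?_, E, _, ‹_›, e1, (Nat.card_congr e2.toEquiv).symm.trans k, ⟨e3.trans (.prodCongr (.refl _) e2)⟩⟩
  obtain ⟨y, hy, rfl | rfl⟩ := dc x hx
  · exact w.pow nd hy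
  · rw [(c0 y (l hy)).symm.mul_pow, pow_two (F.ev _), F.t3.sq _ a, one_mul]; exact w.pow nd hy

theorem vle_2b (F : FM P22q G) : closure {F.ev [0], F.ev [2]} ≤ NN (F.zW W_e22) 10 0 := (closure_le _).2 (by
  rintro _ (rfl | rfl)
  exacts [FM.inW (u := [0]) (by decide +kernel), FM.inNW_spec (he_22q F) (u := [0, 9]) (by decide +kernel)])

theorem gf4 : ∃ (K : Type) (_ : Field K) (_ : Fintype K), Fintype.card K = 4 :=
  have : Fact (Nat.Prime 2) := ⟨Nat.prime_two⟩
  have := Fintype.ofFinite (GaloisField 2 2)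
  ⟨GaloisField 2 2, inferInstance, this, by rw [← Nat.card_eq_fintype_card, GaloisField.card 2 2 two_ne_zero]; rfl⟩

theorem ev_2b (F : FM P22 G) : F.e (0,[]) = (F22q F).ev [0] ∧ F.e (2,[]) = (F22q F).ev [2] :=
  ⟨(F.ev_tw (q := (0,[])) (by decide +kernel)).symm, (F.ev_tw (q := (2,[])) (by decide +kernel)).symm⟩

end H7.T
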