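import Cfsg.Agent.H7.T.Y5_2
import Cfsg.Agent.H7.FM4
import Cfsg.Prelude.Def_Spor_M

/-! H7.Y555: the arm relations of the diagram Y555 follow from the spider relation. -/

set_option maxRecDepth 100000
namespace H7
open Subgroup
universe u

theorem comm_of_rel {G : Type u} [Group G] {gs : ℕ → G} {ng : ℕ} (h : ∀ a < ng, gs a * gs a = 1) (u t : List ℕ) {r : List ℕ} (k : Rels gs [r])
    (e : (∀ a ∈ u, a < ng) ∧ (∀ a ∈ t, a < ng) ∧ r = u ++ (t ++ (u.reverse ++ t.reverse))) : Commute (wev gs u) (wev gs t) := by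
  have := k r List.mem_cons_self
  rw [e.2.2, wev_append, wev_append, wev_append, wev_rev fun a ha => h a (e.1 a ha), wev_rev fun a ha => h a (e.2.1 a ha), ← mul_assoc, ← mul_inv_rev] at this
  exact mul_inv_eq_one.1 this

namespace T

def u_Y5 : List ℕ := [9, 0, 10, 9] ++ (10 :: f_Y5 ++ (m_Y5 ++ [9, 10, 0, 9]))

theorem y532 : Der.{u} R_Y532 [10 :: f_Y5] := fun G _ gs h => by
  have sq : ∀ a < 11, gs a * gs a = 1 := fun a ha => by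
    simpa using h [a, a] ((by decide +kernel : ∀ a < 11, [a, a] ∈ R_Y532) a ha)
  have c : ∀ a ∈ [9, 0, 10], Commute (gs a) (gs 6) := fun a ha => by
    have : [a, 6, a, 6] ∈ R_Y532 ∨ [6, a, 6, a] ∈ R_Y532 := (by decide +kernel : ∀ a ∈ [9, 0, 10], [a, 6, a, 6] ∈ R_Y532 ∨ [6, a, 6, a] ∈ R_Y532) a ha
    have l : a < 11 := by simp at ha; omega
    rcases this with k | k
    · simpa using comm_of_rel sq [a] [6] (List.forall_mem_singleton.2 (h _ k)) (by simp [l])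
    · simpa using (comm_of_rel sq [6] [a] (List.forall_mem_singleton.2 (h _ k)) (by simp [l])).symm
  have m : wev gs m_Y5 = 1 := der_Y5d G gs h _ List.mem_cons_self
  have f := comm_of_rel sq f_Y5 [6] (der_Y5c_0 G gs h) (by decide +kernel)
  have e : wev gs u_Y5 = wev gs [9, 0, 10, 9] * wev gs (10 :: f_Y5) * (wev gs [9, 0, 10, 9])⁻¹ := by
    rw [← wev_rev (v := [9, 0, 10, 9]) fun a ha => sq a (by simp at ha; omega), u_Y5, wev_append, wev_append, wev_append, m, one_mul, mul_assoc]; rfl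
  have k : ∀ {t}, Commute (wev gs u_Y5) t → t ∈ centralizer {wev gs u_Y5} := fun k => mem_centralizer_singleton_iff.2 k.symm
  have k6 : gs 6 ∈ centralizer {wev gs u_Y5} := k (by
    have w : Commute (wev gs [9, 0, 10, 9]) (gs 6) := by
      simp only [wev_cons, wev_nil, mul_one]
      exact (c 9 (by simp)).mul_left ((c 0 (by simp)).mul_left ((c 10 (by simp)).mul_left (c 9 (by simp))))
    rw [e, wev_cons gs 10]
    exact (w.mul_left ((c 10 (by simp)).mul_left (by simpa using f))).mul_left w.inv_left)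
  have k0 : gs 0 ∈ centralizer {wev gs u_Y5} := by
    have := der_Y5c_1 G gs h (rp 9 (s_Y5 ++ [4, 3, 7, 8, 4, 5, 2, 6]) ++ [0]) (by decide +kernel)
    rw [wev_append, wev_rp, wev_cons, wev_nil, mul_one] at this
    rw [eq_inv_of_mul_eq_one_right this, wev_append]
    refine inv_mem (pow_mem (mul_mem (k (comm_of_rel sq _ _ (der_Y5_6 G gs h) (by decide +kernel))) (wev_mem_of_letters ?_)) _)
    have a := fun a r (d : Rels gs [r]) e => k (by simpa using comm_of_rel sq u_Y5 [a] d e : Commute (wev gs u_Y5) (gs a))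
    have a2 := a 2 _ (der_Y5_0 G gs h) (by decide +kernel)
    have a3 := a 3 _ (der_Y5_1 G gs h) (by decide +kernel)
    have a4 := a 4 _ (der_Y5_2 G gs h) (by decide +kernel)
    have a5 := a 5 _ (der_Y5_3 G gs h) (by decide +kernel)
    have a7 := a 7 _ (der_Y5_4 G gs h) (by decide +kernel)
    have a8 := a 8 _ (der_Y5_5 G gs h) (by decide +kernel)
    simp only [List.forall_mem_cons]
    exact ⟨a4, a3, a7, a8, a4, a5, a2, k6, by simp⟩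
  have h3 := der_Y5_7 G gs h (rp 3 u_Y5) (by decide +kernel)
  have h2 := der_Y5_8 G gs h (rp 2 (0 :: u_Y5)) (by decide +kernel)
  rw [wev_rp, wev_cons, Commute.mul_pow (mem_centralizer_singleton_iff.1 k0), pow_two, sq 0 (by decide), one_mul] at h2
  rw [wev_rp, pow_succ, h2, one_mul, e, conj_eq_one_iff] at h3
  exact List.forall_mem_singleton.2 h3

def idx_B : Cfsg.Spor.Bimonster.Gen → ℕ
  | .a => 0
  | .b1 => 1
  | .c1 => 2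
  | .d1 => 3
  | .e1 => 4
  | .f1 => 5
  | .b2 => 6
  | .c2 => 7
  | .d2 => 8
  | .e2 => 9
  | .f2 => 10
  | .b3 => 11
  | .c3 => 12
  | .d3 => 13
  | .e3 => 14
  | .f3 => 15
def all_B : List Cfsg.Spor.Bimonster.Gen := [.a, .b1, .c1, .d1, .e1, .f1, .b2, .c2, .d2, .e2, .f2, .b3, .c3, .d3, .e3, .f3]
theorem hall_B : ∀ x, x ∈ all_B := by intro x; cases x <;> decide
def L_B : List (FreeGroup Cfsg.Spor.Bimonster.Gen) := [Cfsg.Spor.Bimonster.a, Cfsg.Spor.Bimonster.b1, Cfsg.Spor.Bimonster.c1, Cfsg.Spor.Bimonster.d1, Cfsg.Spor.Bimonster.e1, Cfsg.Spor.Bimonster.f1, Cfsg.Spor.Bimonster.b2, Cfsg.Spor.Bimonster.c2, Cfsg.Spor.Bimonster.d2, Cfsg.Spor.Bimonster.e2, Cfsg.Spor.Bimonster.f2, Cfsg.Spor.Bimonster.b3, Cfsg.Spor.Bimonster.c3, Cfsg.Spor.Bimonster.d3, Cfsg.Spor.Bimonster.e3, Cfsg.Spor.Bimonster.f3]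
theorem let_B : letOK Cfsg.Spor.Bimonster.edges all_B L_B idx_B iv_Y555 = true := by decide +kernel
def sp_B : List (FreeGroup Cfsg.Spor.Bimonster.Gen) := [(Cfsg.Spor.Bimonster.a * Cfsg.Spor.Bimonster.b1 * Cfsg.Spor.Bimonster.c1 * Cfsg.Spor.Bimonster.a * Cfsg.Spor.Bimonster.b2 * Cfsg.Spor.Bimonster.c2 * Cfsg.Spor.Bimonster.a * Cfsg.Spor.Bimonster.b3 * Cfsg.Spor.Bimonster.c3) ^ 10]
def R0_B : List (List ℕ) := [[0,0],[0,1,0,1,0,1],[0,6,0,6,0,6],[0,11,0,11,0,11],[0,2,0,2],[0,3,0,3],[0,4,0,4],[0,5,0,5],[0,7,0,7],[0,8,0,8],[0,9,0,9],[0,10,0,10],[0,12,0,12],[0,13,0,13],[0,14,0,14],[0,15,0,15],[1,0,1,0,1,0],[1,1],[1,6,1,6],[1,11,1,11],[1,2,1,2,1,2],[1,3,1,3],[1,4,1,4],[1,5,1,5],[1,7,1,7],[1,8,1,8],[1,9,1,9],[1,10,1,10],[1,12,1,12],[1,13,1,13],[1,14,1,14],[1,15,1,15],[6,0,6,0,6,0],[6,1,6,1],[6,6],[6,11,6,11],[6,2,6,2],[6,3,6,3],[6,4,6,4],[6,5,6,5],[6,7,6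,7,6,7],[6,8,6,8],[6,9,6,9],[6,10,6,10],[6,12,6,12],[6,13,6,13],[6,14,6,14],[6,15,6,15],[11,0,11,0,11,0],[11,1,11,1],[11,6,11,6],[11,11],[11,2,11,2],[11,3,11,3],[11,4,11,4],[11,5,11,5],[11,7,11,7],[11,8,11,8],[11,9,11,9],[11,10,11,10],[11,12,11,12,11,12],[11,13,11,13],[11,14,11,14],[11,15,11,15],[2,0,2,0],[2,1,2,1,2,1],[2,6,2,6],[2,11,2,11],[2,2],[2,3,2,3,2,3],[2,4,2,4],[2,5,2,5],[2,7,2,7],[2,8,2,8],[2,9,2,9],[2,10,2,10],[2,12,2,12],[2,13,2,13],[2,14,2,14],[2,15,2,15],[3,0,3,0],[3,1,3,1],[3,6,3,6],[3,11,3,11],[3,2,3,2,3,2],[3,3],[3,4,3,4,3,4],[3,5,3,5],[3,7,3,7],[3,8,3,8],[3,9,3,9],[3,10,3,10],[3,12,3,12],[3,13,3,13],[3,14,3,14],[3,15,3,15],[4,0,4,0],[4,1,4,1],[4,6,4,6],[4,11,4,11],[4,2,4,2],[4,3,4,3,4,3],[4,4],[4,5,4,5,4,5],[4,7,4,7],[4,8,4,8],[4,9,4,9],[4,10,4,10],[4,12,4,12],[4,13,4,13],[4,14,4,14],[4,15,4,15],[5,0,5,0],[5,1,5,1],[5,6,5,6],[5,1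1,5,11],[5,2,5,2],[5,3,5,3],[5,4,5,4,5,4],[5,5],[5,7,5,7],[5,8,5,8],[5,9,5,9],[5,10,5,10],[5,12,5,12],[5,13,5,13],[5,14,5,14],[5,15,5,15],[7,0,7,0],[7,1,7,1],[7,6,7,6,7,6],[7,11,7,11],[7,2,7,2],[7,3,7,3],[7,4,7,4],[7,5,7,5],[7,7],[7,8,7,8,7,8],[7,9,7,9],[7,10,7,10],[7,12,7,12],[7,13,7,13],[7,14,7,14],[7,15,7,15],[8,0,8,0],[8,1,8,1],[8,6,8,6],[8,11,8,11],[8,2,8,2],[8,3,8,3],[8,4,8,4],[8,5,8,5],[8,7,8,7,8,7],[8,8],[8,9,8,9,8,9],[8,10,8,10],[8,12,8,12],[8,13,8,13],[8,14,8,14],[8,15,8,15],[9,0,9,0],[9,1,9,1],[9,6,9,6],[9,11,9,11],[9,2,9,2],[9,3,9,3],[9,4,9,4],[9,5,9,5],[9,7,9,7],[9,8,9,8,9,8],[9,9],[9,10,9,10,9,10],[9,12,9,12],[9,13,9,13],[9,14,9,14],[9,15,9,15],[10,0,10,0],[10,1,10,1],[10,6,10,6],[10,11,10,11],[10,2,10,2],[10,3,10,3],[10,4,10,4],[10,5,10,5],[10,7,10,7],[10,8,10,8],[10,9,10,9,10,9],[10,10],[10,12,10,12],[10,13,10,13],[10,14,10,14],[10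,15,10,15],[12,0,12,0],[12,1,12,1],[12,6,12,6],[12,11,12,11,12,11],[12,2,12,2],[12,3,12,3],[12,4,12,4],[12,5,12,5],[12,7,12,7],[12,8,12,8],[12,9,12,9],[12,10,12,10],[12,12],[12,13,12,13,12,13],[12,14,12,14],[12,15,12,15],[13,0,13,0],[13,1,13,1],[13,6,13,6],[13,11,13,11],[13,2,13,2],[13,3,13,3],[13,4,13,4],[13,5,13,5],[13,7,13,7],[13,8,13,8],[13,9,13,9],[13,10,13,10],[13,12,13,12,13,12],[13,13],[13,14,13,14,13,14],[13,15,13,15],[14,0,14,0],[14,1,14,1],[14,6,14,6],[14,11,14,11],[14,2,14,2],[14,3,14,3],[14,4,14,4],[14,5,14,5],[14,7,14,7],[14,8,14,8],[14,9,14,9],[14,10,14,10],[14,12,14,12],[14,13,14,13,14,13],[14,14],[14,15,14,15,14,15],[15,0,15,0],[15,1,15,1],[15,6,15,6],[15,11,15,11],[15,2,15,2],[15,3,15,3],[15,4,15,4],[15,5,15,5],[15,7,15,7],[15,8,15,8],[15,9,15,9],[15,10,15,10],[15,12,15,12],[15,13,15,13],[15,14,15,14,15,14],[15,15],[0,1,2,0,6,7,0,11,12,0,1,2,0,6,7,0,11,12,0,1,2,0,6,7,0,11,12,0,1,2,0,6,7,0,11,12,0,1,2,0,6,7,0,11,12,0,1,2,0,6,7,0,11,12,0,1,2,0,6,7,0,11,12,0,1,2,0,6,7,0,11,12,0,1,2,0,6,7,0,11,12,0,1,2,0,6,7,0,11,12]]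
theorem R0_B_eq : (relL Cfsg.Spor.Bimonster.edges sp_B).map (trW idx_B iv_Y555) = R0_B := by decide +kernel
theorem der0_B : Der.{u} R0_B R_Y555 := Der.of_cert (c := [(0,0),(17,0),(68,0),(85,0),(102,0),(119,0),(34,0),(136,0),(153,0),(170,0),(187,0),(51,0),(204,0),(221,0),(238,0),(255,0),(1,0),(4,0),(5,0),(6,0),(7,0),(2,0),(8,0),(9,0),(10,0),(11,0),(3,0),(12,0),(13,0),(14,0),(15,0),(20,0),(21,0),(22,0),(23,0),(18,0),(24,0),(25,0),(26,0),(27,0),(19,0),(28,0),(29,0),(30,0),(31,0),(69,0),(70,0),(71,0),(36,1),(72,0),(73,0),(74,0),(75,0),(52,1),(76,0),(77,0),(78,0),(79,0),(86,0),(87,0),(37,1),(88,0),(89,0),(90,0),(91,0),(53,1),(92,0),(93,0),(94,0),(95,0),(103,0),(38,1),(104,0),(105,0),(106,0),(107,0),(54,1),(108,0),(109,0),(110,0),(111,0),(39,1),(120,0),(121,0),(122,0),(123,0),(55,1),(124,0),(125,0),(126,0),(127,0),(40,0),(41,0),(42,0),(43,0),(35,0),(44,0),(45,0),(46,0),(47,0),(137,0),(138,0),(139,0),(56,1),(140,0),(141,0),(142,0),(143,0),(154,0),(155,0),(57,1),(156,0),(157,0),(158,0),(159,0),(171,0),(58,1),(172,0),(173,0),(174,0),(175,0),(59,1),(188,0),(189,0),(190,0),(191,0),(60,0),(61,0),(62,0),(63,0),(205,0),(206,0),(207,0),(222,0),(223,0),(239,0),(256,0)])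 (by decide +kernel)

theorem arms_B : Der.{u} R0_B (Cfsg.Spor.Bimonster.extra.map (trW idx_B iv_Y555)) := fun G _ gs h0 => by
  have h := der_Bb G gs (der0_B G gs h0)
  have a : ∀ {σ}, Imp.{u} R_Y555b σ R_Y532 → wev gs ((10 :: f_Y5).map (nthN σ)) = 1 := fun i =>
    (wev_map _ _ _).trans (y532 G _ (i G gs h) _ List.mem_cons_self)
  have e : Cfsg.Spor.Bimonster.extra.map (trW idx_B iv_Y555) = [rp 10 [0, 1, 2, 0, 6, 7, 0, 11, 12], (10 :: f_Y5).map (nthN [3, 2, 1, 0, 6, 7, 8, 11, 12, 4, 5]), (10 :: f_Y5).map (nthN [3, 2, 1, 0, 11, 12, 13, 6, 7, 4, 5]), (10 :: f_Y5).map (nthN [8, 7, 6, 0, 1, 2, 3, 11, 12, 9, 10]), (10 :: f_Y5).map (nthN [8, 7, 6, 0, 11, 12, 13, 1, 2, 9, 10]), (10 :: f_Y5).map (nthN [13, 12, 11, 0, 1, 2, 3, 6, 7, 14, 15]), (10 :: f_Y5).map (nthN [13, 12, 11, 0, 6, 7, 8, 1, 2, 14, 15])] := by decide +kernel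
  rw [e]
  simp only [Rels, List.forall_mem_cons]
  exact ⟨h0 _ (by decide +kernel), a imp_Y555b_Y532_7122, a imp_Y555b_Y532_7123, a imp_Y555b_Y532_7124, a imp_Y555b_Y532_7125, a imp_Y555b_Y532_7126, a imp_Y555b_Y532_7127, by simp⟩

end T
end H7
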